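import Mathlib
import Cfsg.Agent.Lib.MonLoc.Base

/-!
Groups of Monster type: the normalizer of a cyclic subgroup of order four of `Q`.
-/

set_option autoImplicit false

namespace H7.ML

open Cfsg Subgroup H95 H16

theorem sqNorm_leechV : sqNorm (Spor.leechV : GolayPt → ℤ) = 48 := by decide +kernel

/-- The stabilizer of `v` in `Co0` is `Co3`. -/
def stabEquiv3 : MulAction.stabilizer Co0 Spor.leechV ≃* Spor.Co3 where
  toFun γ := ⟨γ.1.1, γ.1.2, γ.2⟩
  invFun g := ⟨⟨g.1, g.2.1⟩, g.2.2⟩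
  left_inv _ := rfl
  right_inv _ := rfl
  map_mul' _ _ := rfl

theorem exists_stab3 {γ : Co0} (h : Cg (γ • Spor.leechV) Spor.leechV) :
    ∃ δ : MulAction.stabilizer Co0 Spor.leechV,
      (QuotientGroup.mk δ : Spor.Co1) = QuotientGroup.mk γ := by
  have := sqNorm_leechV
  rcases h.short (by rw [sqNorm_co0]; omega) (by omega) with e | e | e
  · exact ⟨⟨γ, e⟩, rfl⟩
  · exact ⟨⟨γ * negCo0, by
      rw [MulAction.mem_stabilizer_iff, mul_smul, negCo0_smul, smul_neg, e, neg_neg]⟩,
      (mk_eq_mk.2 (Or.inr rfl)).symm⟩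
  · omega

theorem stab_inj3 {γ δ : MulAction.stabilizer Co0 Spor.leechV}
    (h : (QuotientGroup.mk γ : Spor.Co1) = QuotientGroup.mk (δ : Co0)) : γ = δ := by
  rcases mk_eq_mk.1 h with e | e
  · exact Subtype.ext e.symm
  · have h1 := MulAction.mem_stabilizer_iff.1 δ.2
    rw [e, mul_smul, negCo0_smul, smul_neg, MulAction.mem_stabilizer_iff.1 γ.2] at h1
    exact absurd (congrFun (congrArg Subtype.val h1) none) (by decide)

variable {G : Type*} [Group G]

theorem mem_zpowers_four {x z y : G} (hx : x * x = z) (hz : z * z = 1) :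
    y ∈ zpowers x ↔ y = 1 ∨ y = x ∨ y = z ∨ y = x * z := by
  have h4 : x ^ (4 : ℤ) = 1 := by
    rw [show (4 : ℤ) = 2 + 2 from rfl, zpow_add, zpow_two, hx, hz]
  constructor
  · rintro ⟨n, rfl⟩
    have e : x ^ n = x ^ (n % 4) := by
      conv_lhs => rw [← Int.mul_ediv_add_emod n 4, zpow_add, zpow_mul, h4, one_zpow, one_mul]
    have h0 := Int.emod_nonneg n (show (4 : ℤ) ≠ 0 by norm_num)
    have h1 := Int.emod_lt_of_pos n (show (0 : ℤ) < 4 by norm_num)
    simp only [e]
    generalize n % 4 = k at h0 h1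
    interval_cases k
    · simp
    · simp
    · right; right; left; rw [zpow_two, hx]
    · right; right; right
      rw [show (3 : ℤ) = 1 + 2 from rfl, zpow_add, zpow_two, hx, zpow_one]
  · rintro (rfl | rfl | rfl | rfl)
    · exact one_mem _
    · exact mem_zpowers _
    · exact hx ▸ mul_mem (mem_zpowers _) (mem_zpowers _)
    · exact hx ▸ mul_mem (mem_zpowers _) (mul_mem (mem_zpowers _) (mem_zpowers _))

theorem four_local [Finite G] {z : G} {Q : Subgroup G} {φ : centralizer ({z} : Set G) →* Spor.Co1}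
    {cls : leechLattice → G → Prop} (M : Mon z Q φ cls) :
    ∃ (C N : Subgroup G) (R : Subgroup N), IsCyclic C ∧ Nat.card C = 4 ∧
      N = normalizer (C : Set G) ∧ IsExtraspecial 2 R ∧ Nat.card R = 2 ^ 25 ∧
      ∃ _ : R.Normal, Nonempty (N ⧸ R ≃* Spor.Co3) := by
  obtain ⟨x, hx⟩ := M.ex_elt Spor.leechV
  have hxQ := M.mem hx
  have hxx : x * x = z := (M.h.sq_mem hxQ).resolve_left fun e => by
    have := (M.sq_iff hx).1 e
    rw [sqNorm_leechV] at this
    omega
  have z1 := M.h.ne_one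
  have zz := M.h.sq
  have xz := M.h.central x hxQ
  have ho : orderOf x = 4 := by
    have := orderOf_eq_prime_pow (x := x) (p := 2) (n := 1) (by rw [pow_one, pow_two, hxx]; exact z1)
      (by simpa using M.h.pow_four hxQ)
    simpa using this
  have hN : ∀ n : G, n ∈ normalizer ((zpowers x : Subgroup G) : Set G) ↔
      n * z = z * n ∧ (n * x * n⁻¹ = x ∨ n * x * n⁻¹ = x * z) := by
    intro n
    constructor
    · intro hn
      have h1 := (mem_zpowers_four hxx zz).1 (conj_mem_of_normalizer hn (mem_zpowers x))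
      have h2 : n * x * n⁻¹ * (n * x * n⁻¹) = n * z * n⁻¹ := by rw [← hxx]; group
      have h3 : n * z * n⁻¹ ≠ 1 := fun e => z1 (conj_eq_one_iff.1 e)
      rcases h1 with e | e | e | e <;> rw [e] at h2
      · exact absurd (h2.symm.trans (one_mul 1)) h3
      · exact ⟨mul_inv_eq_iff_eq_mul.1 (h2.symm.trans hxx), Or.inl e⟩
      · exact absurd (h2.symm.trans zz) h3
      · refine ⟨mul_inv_eq_iff_eq_mul.1 (h2.symm.trans ?_), Or.inr e⟩
        calc x * z * (x * z) = x * (z * x) * z := by group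
          _ = x * x * (z * z) := by rw [← xz]; group
          _ = z := by rw [hxx, zz, mul_one]
    · rintro ⟨h1, h2⟩
      refine mem_normalizer_of_finite ?_
      rintro _ ⟨k, rfl⟩
      have : n * x * n⁻¹ ∈ zpowers x := (mem_zpowers_four hxx zz).2 (by tauto)
      simpa using zpow_mem this k
  set N := normalizer ((zpowers x : Subgroup G) : Set G) with hNdef
  have hc : ∀ n : N, (n : G) ∈ centralizer ({z} : Set G) := fun n => mem_cent_iff.2 ((hN n).1 n.2).1
  have h : ∀ n : N, ∃ δ : MulAction.stabilizer Co0 Spor.leechV,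
      (QuotientGroup.mk δ : Spor.Co1) = φ ⟨n, hc n⟩ := by
    intro n
    obtain ⟨γ, hγ⟩ := QuotientGroup.mk_surjective (φ ⟨n, hc n⟩)
    have h1 := M.smul _ γ hγ hx
    obtain ⟨δ, hδ⟩ := exists_stab3 ((M.eq_iff hx h1).2 ((hN n).1 n.2).2).symm
    exact ⟨δ, hδ.trans hγ⟩
  choose f hf using h
  let θ : N →* MulAction.stabilizer Co0 Spor.leechV := MonoidHom.mk' f fun a b => stab_inj3 (by
    rw [hf]
    change _ = (QuotientGroup.mk (f a) : Spor.Co1) * (QuotientGroup.mk (f b) : Spor.Co1)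
    rw [hf, hf, ← map_mul]; rfl)
  have θs : Function.Surjective θ := by
    intro δ
    obtain ⟨c, hc'⟩ := M.exists_lift δ
    have h1 := M.smul c _ hc' hx
    rw [MulAction.mem_stabilizer_iff.1 δ.2] at h1
    exact ⟨⟨c, (hN c).2 ⟨mem_cent_iff.1 c.2, (M.eq_iff hx h1).1 (Cg.refl _)⟩⟩,
      stab_inj3 ((hf _).trans hc'.symm)⟩
  have hQN : Q ≤ N := fun q hq => (hN q).2 ⟨M.h.central q hq, M.h.conj hxQ hq⟩
  have θk : θ.ker = Q.subgroupOf N := by
    ext n
    rw [MonoidHom.mem_ker, mem_subgroupOf, ← M.ker ⟨n, hc n⟩, ← hf]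
    exact ⟨fun e => by rw [show f n = 1 from e]; rfl, fun e => stab_inj3 e⟩
  refine ⟨zpowers x, N, θ.ker, inferInstance, by rw [Nat.card_zpowers, ho], rfl, ?_, ?_,
    inferInstance, ⟨(QuotientGroup.quotientKerEquivOfSurjective θ θs).trans stabEquiv3⟩⟩
  · rw [θk]; exact (M.h.toES.subgroupOf hQN).isExtraspecial
  · rw [θk, Nat.card_congr (subgroupOfEquivOfLe hQN).toEquiv, M.card]

end H7.ML
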