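import Mathlib
import Cfsg.Agent.Lib.MonLoc.Ten
import Cfsg.Agent.Lib.GL.Simple

/-!
Groups of Monster type: the normalizer of the elementary abelian subgroup of order `2 ^ 5`.
-/

set_option autoImplicit false
set_option linter.unusedSectionVars false

namespace H7.ML

open Cfsg Subgroup H95 H16
open scoped symmDiff Pointwise

theorem pCore_SL5 : pCore 2 (Matrix.SpecialLinearGroup (Fin 5) (ZMod 2)) = ⊥ := by
  have h1 : center (Matrix.SpecialLinearGroup (Fin 5) (ZMod 2)) = ⊥ := eq_bot_iff.2 fun A hA => by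
    obtain ⟨r, h, e⟩ := Matrix.SpecialLinearGroup.mem_center_iff.1 hA
    obtain rfl : r = 1 := (zmod2_eq r).resolve_left fun f => by simp [f] at h
    exact Subtype.ext (e.symm.trans (map_one _))
  have h2 := H10.isSimpleGroup_PSL_of_three_le (ι := Fin 5) (F := ZMod 2) (by simp)
  have : IsSimpleGroup (Matrix.SpecialLinearGroup (Fin 5) (ZMod 2)) :=
    ((QuotientGroup.quotientMulEquivOfEq h1).trans QuotientGroup.quotientBot).symm.isSimpleGroup
  refine (pCore_normal 2 _).eq_bot_or_eq_top.resolve_right fun e => ?_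
  have h3 : IsPGroup 2 (Matrix.SpecialLinearGroup (Fin 5) (ZMod 2)) :=
    (e ▸ H1.isPGroup_pCore : IsPGroup 2 (⊤ : Subgroup _)).of_equiv topEquiv
  have := h3.center_nontrivial
  rw [h1] at this
  exact absurd this (not_nontrivial _)

theorem toLin'_bijective (n : ℕ) : Function.Bijective (Matrix.SpecialLinearGroup.toLin' :
    Matrix.SpecialLinearGroup (Fin n) (ZMod 2) →* _) := by
  refine ⟨Matrix.SpecialLinearGroup.toLin'_injective, fun g => ⟨⟨LinearMap.toMatrix' g, ?_⟩,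
    LinearEquiv.toLinearMap_injective (Matrix.toLin'_toMatrix' _)⟩⟩
  rw [LinearMap.det_toMatrix']
  exact (zmod2_eq _).resolve_left (LinearEquiv.isUnit_det' g).ne_zero

variable {G : Type*} [Group G] {z s : G} {Q Q' : Subgroup G}
  {φ : centralizer ({z} : Set G) →* Spor.Co1} {cls : leechLattice → G → Prop}

theorem norm_UU [Finite G] (M : Mon z Q φ cls) {n : G}
    (h : ∀ i, n ∈ normalizer (AA M (hOC i).1 : Set G)) : n ∈ normalizer (UU M : Set G) :=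
  mem_normalizer_of_finite fun _ hx => (mem_UU M).2 fun i =>
    conj_mem_of_normalizer (h i) (UU_le M i hx)

/-- The elements centralizing `UU` and normalizing the three subgroups of order `2 ^ 10`. -/
def DD (M : Mon z Q φ cls) : Subgroup G :=
  centralizer (UU M : Set G) ⊓ ⨅ i, normalizer (AA M (hOC i).1 : Set G)

theorem mem_DD (M : Mon z Q φ cls) {x : G} : x ∈ DD M ↔ x ∈ centralizer (UU M : Set G) ∧
    ∀ i, x ∈ normalizer (AA M (hOC i).1 : Set G) := and_congr_right fun _ => mem_iInf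

theorem cent_UU_le (M : Mon z Q φ cls) : centralizer (UU M : Set G) ≤ centralizer ({z} : Set G) :=
  centralizer_le (Set.singleton_subset_iff.2 (z_mem_UU _))

namespace St

variable [Finite G] (S : St z s Q Q' φ cls)
include S

theorem lift_UU {σ : Equiv.Perm GolayPt} (hσ : σ ∈ M24) {d : Finset GolayPt} (hd : d ∈ code)
    (h1 : ∀ k, (σ • TE k) ∆ TE k ∈ code) (h2 : ∀ k, 2 ∣ (d ∩ TE k).card) :
    ∃ c : centralizer ({z} : Set G), (c : G) ∈ centralizer (UU S.M : Set G) ∧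
      (QuotientGroup.mk (mono σ hσ d hd) : Spor.Co1) = φ c := by
  obtain ⟨c, hc⟩ := S.M.exists_lift (mono σ hσ d hd)
  have h3 := S.UU_le_of (B :=
    { carrier := {t | ∃ v, cls v t ∧ Cg (mono σ hσ d hd • v) v}
      one_mem' := ⟨0, S.M.cls_zero, by simpa using Cg.refl 0⟩
      mul_mem' := by
        rintro a b ⟨v, hv, e⟩ ⟨w, hw, f⟩
        exact ⟨v + w, S.M.add hv hw, by rw [smul_add]; exact e.add f⟩
      inv_mem' := fun ⟨v, hv, e⟩ => ⟨v, cls_inv S.M hv, e⟩ })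
    ⟨0, cls_z S.M, by simpa using Cg.refl 0⟩ ⟨_, S.hs, mem_monoGroup_iff_cg.1 (mono_mem hσ hd)⟩
    fun k x hx => ⟨_, hx, (mono_lv4_iff hσ hd (card_TE k)).2 ⟨h1 k, h2 k⟩⟩
  obtain ⟨q, hq, h4⟩ := ES_inner S.M.h.toES S.UU_le_Q (z_mem_UU _) (mem_cent_iff.1 c.2) fun u hu => by
    obtain ⟨v, hv, e⟩ := h3 hu
    exact (S.M.eq_iff hv (S.M.smul c _ hc hv)).1 e.symm
  refine ⟨(⟨q, S.M.h.le_centralizer hq⟩ : centralizer ({z} : Set G))⁻¹ * c, h4, ?_⟩
  rw [map_mul, map_inv, (S.M.ker ⟨q, _⟩).2 hq, hc, inv_one, one_mul]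

theorem cent_perm {c : G} (hc : c ∈ centralizer (UU S.M : Set G)) (i : Fin 3) :
    ∃ j, ∀ a ∈ AA S.M (hOC i).1, c * a * c⁻¹ ∈ AA S.M (hOC j).1 := by
  obtain ⟨σ, hσ, d, hd, e⟩ := S.exists_mono ⟨c, cent_UU_le _ hc⟩ (hc s S.s_mem_UU).symm
  have hO := H15.smul_mem_octads hσ (hOC i)
  have h1 := fun a => conj_AA S.M (hOC i).1 hO.1 e (mono_mul_eps hσ hd _ _ rfl) (a := a)
  obtain ⟨j, hj⟩ := mem_trio hO fun b hb h k => by
    obtain ⟨u, hu⟩ := S.M.ex_elt (lvT k)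
    obtain ⟨t, ht⟩ := S.M.ex_elt (lrep b hb)
    have h2 := mem_UU_of_cls S.M hu
    have h3 := h1 u (UU_le _ i h2)
    rw [← hc u h2, mul_inv_cancel_right] at h3
    have h4 := (S.M.commute_iff hu ht).1
      ((mem_AA _ _).1 h3 _ _ ht ((sup_lrep hb h).fix_compl _)).symm
    rw [lvT, dot_lv4_lrep] at h4
    omega
  exact ⟨j, fun a => conj_AA S.M (hOC i).1 (hOC j).1 e (mono_mul_eps hσ hd _ _ hj)⟩

theorem mem_img_DD {σ : Equiv.Perm GolayPt} (hσ : σ ∈ M24) {d : Finset GolayPt} (hd : d ∈ code) :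
    mono σ hσ d hd ∈ imgN φ (DD S.M) ↔ σ ∈ JJ ∧ ∀ k, 2 ∣ (d ∩ TE k).card := by
  rw [mem_imgN]
  constructor
  · rintro ⟨b, hb, e⟩
    rw [mem_DD] at hb
    have h1 : ∀ k, (σ • TE k) ∆ TE k ∈ code ∧ 2 ∣ (d ∩ TE k).card := fun k => by
      obtain ⟨u, hu⟩ := S.M.ex_elt (lvT k)
      exact (mono_lv4_iff hσ hd (card_TE k)).1
        (S.M.cg_of_comm hu (hb.1 u (mem_UU_of_cls S.M hu)).symm e)
    refine ⟨⟨hσ, fun i => (S.AA_inj (hOC i) (H15.smul_mem_octads hσ (hOC i)) fun a ha => ?_).symm,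
      fun k => (h1 k).1⟩, fun k => (h1 k).2⟩
    simpa [mul_assoc] using conj_AA S.M (hOC i).1 (H15.smul_mem_octads hσ (hOC i)).1 e
      (mono_mul_eps hσ hd _ _ rfl) (conj_mem_of_normalizer' (hb.2 i) ha)
  · rintro ⟨h1, h2⟩
    obtain ⟨c, hc, e⟩ := S.lift_UU hσ hd h1.2.2 h2
    exact ⟨c, (mem_DD _).2 ⟨hc, fun i => norm_AA S.M _ e (mono_mul_eps hσ hd _ _ (h1.2.1 i))⟩, e⟩

theorem card_DD : Nat.card (DD S.M) = 2 ^ 35 := by
  have h1 := card_imgN S.M (H := DD S.M) (inf_le_left.trans (cent_UU_le _))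
  have h2 := card_mono_filter _ _ _ (S.img_le (H := DD S.M) fun c hc => hc.1 s S.s_mem_UU)
    fun _ hσ _ hd => S.mem_img_DD hσ hd
  rw [ncard_512, Nat.card_congr (Equiv.subtypeEquivRight (q := (· ∈ JJ)) fun σ =>
    ⟨fun h => h.2, fun h => ⟨h.1, h⟩⟩), card_JJ] at h2
  have h3 := (ES_dual S.M.h.toES S.UU_le_Q (z_mem_UU _)).1
  rw [S.card_UU, S.M.card] at h3
  rw [show Q ⊓ DD S.M = Q ⊓ centralizer (UU S.M : Set G) from Subgroup.ext fun x =>
    and_congr_right fun hx => (mem_DD _).trans (and_iff_left fun i => Q_le_norm _ _ hx),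
    show Nat.card (imgN φ _) = _ from h2] at h1
  omega

theorem exists_transv {a w : G} (ha : a ∈ UU S.M) (h1 : a ≠ 1) (hw : w ∈ UU S.M) {B : Subgroup G}
    (hB : B ≤ UU S.M) (haB : a ∈ B) (hwB : w ∉ B) :
    ∃ q, (∀ i, q ∈ normalizer (AA S.M (hOC i).1 : Set G)) ∧ q ∈ centralizer (B : Set G) ∧
      q * w * q⁻¹ = w * a := by
  obtain ⟨g, -, rfl⟩ := S.trans_AA (hOC 0) (UU_le _ 0 ha)
    ((qq_eq_zero.1 (S.qq_UU ha)).resolve_left h1)
  have es := S.M.h.toES.map_conj g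
  have h2 : UU S.M ≤ Q.map (MulAut.conj g).toMonoidHom := fun b hb =>
    mem_map_conj.2 ((S.mem_conjQ_iff (hOC 0) (UU_le _ 0 ha) (UU_le _ 0 hb)).2
      (by rw [S.qq_UU hb, S.qq_UU (mul_mem hb ha)]))
  obtain ⟨q, hq, h3, h4⟩ : ∃ q ∈ Q.map (MulAut.conj g).toMonoidHom, q ∈ centralizer (B : Set G) ∧
      q * w ≠ w * q := by
    by_contra hn
    push Not at hn
    exact hwB ((ES_dual es (hB.trans h2) haB).2 w (h2 hw) hn)
  refine ⟨q, fun i => ?_, h3, es.conj_of_ne (h2 hw) hq h4⟩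
  simpa [mul_assoc] using S.conj_Q_norm (hOC i) (UU_le _ i ha) (mem_map_conj.1 hq)

theorem five_hom : ∃ Ψ : normalizer (UU S.M : Set G) →*
    Equiv.Perm (Fin 3) × Matrix.SpecialLinearGroup (Fin 5) (ZMod 2),
      Function.Surjective Ψ ∧ ∀ n, Ψ n = 1 ↔ (n : G) ∈ DD S.M := by
  obtain ⟨e, ρ, C⟩ := exists_co (fun _ ha _ hb => S.comm_AA (hOC 0) (UU_le _ 0 ha) (UU_le _ 0 hb))
    (fun _ ha => S.sq_AA (hOC 0) (UU_le _ 0 ha)) S.card_UU
  let ι := MulEquiv.ofBijective _ (toLin'_bijective 5)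
  let ρ' := ι.symm.toMonoidHom.comp ρ
  have k1 : ∀ n, ρ' n = 1 ↔ (n : G) ∈ centralizer (UU S.M : Set G) := fun n =>
    (ι.symm.map_eq_one_iff).trans (C.ker n)
  have k2 : ∀ g, ∃ n : normalizer (UU S.M : Set G),
      (∀ i, (n : G) ∈ normalizer (AA S.M (hOC i).1 : Set G)) ∧ ρ' n = g := by
    intro g
    have := H10.SL_eq_top_of_transvection_mem
      (((⨅ i, normalizer (AA S.M (hOC i).1 : Set G)).subgroupOf _).map ρ') fun i j hij c => by
      rcases zmod2_eq c with rfl | rfl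
      · simp
      obtain ⟨q, h1, h2, h3⟩ := S.exists_transv (C.mem (Pi.single i 1))
        (fun h => by simpa using congrFun (C.eq_one.1 h) i) (C.mem (Pi.single j 1)) (B :=
          { carrier := {x | ∃ v, v j = 0 ∧ e v = x}
            one_mem' := ⟨0, rfl, C.zero⟩
            mul_mem' := by
              rintro _ _ ⟨u, hu, rfl⟩ ⟨v, hv, rfl⟩
              exact ⟨u + v, by simp [hu, hv], C.add u v⟩
            inv_mem' := by
              rintro _ ⟨u, hu, rfl⟩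
              exact ⟨u, hu, eq_inv_of_mul_eq_one_left (S.sq_AA (hOC 0) (UU_le _ 0 (C.mem u)))⟩ })
        (by rintro _ ⟨u, -, rfl⟩; exact C.mem u) ⟨_, by simp [hij.symm], rfl⟩
        (by rintro ⟨v, hv, h⟩; rw [C.inj h] at hv; simp at hv)
      refine ⟨⟨q, norm_UU _ h1⟩, mem_iInf.2 h1, ι.symm_apply_eq.2 ?_⟩
      refine LinearEquiv.toLinearMap_injective ((Pi.basisFun (ZMod 2) (Fin 5)).ext fun k => C.inj ?_)
      rw [Pi.basisFun_apply]
      refine (C.act _ _).trans ?_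
      change q * _ * q⁻¹ = e (Matrix.toLin' (1 + Matrix.single i j 1) _)
      rw [Matrix.toLin'_apply, Matrix.add_mulVec, Matrix.one_mulVec, Matrix.single_mulVec_eq, C.add]
      by_cases hk : k = j
      · rw [hk, h3]; simp
      · rw [← h2 _ ⟨_, by simp [Ne.symm hk], rfl⟩]; simp [Ne.symm hk, C.zero]
    obtain ⟨n, hn, h⟩ := this.ge (mem_top g)
    exact ⟨n, mem_iInf.1 hn, h⟩
  obtain ⟨θ, hθ⟩ := exists_perm_hom (N := normalizer (UU S.M : Set G)) (fun i => AA S.M (hOC i).1)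
    (fun i j h => OC_inj (S.AA_inj (hOC i) (hOC j) h)) fun n hn i => by
      obtain ⟨k, h1, h2⟩ := k2 (ρ' ⟨n, hn⟩)
      obtain ⟨j, hj⟩ := S.cent_perm ((k1 (⟨n, hn⟩ * k⁻¹)).1 (by simp [h2])) i
      exact ⟨j, fun a ha => by simpa [mul_assoc] using hj _ (conj_mem_of_normalizer (h1 i) ha)⟩
  have k3 : ∀ n, θ n = 1 ↔ ∀ i, (n : G) ∈ normalizer (AA S.M (hOC i).1 : Set G) := fun n =>
    ⟨fun h i => mem_normalizer_of_finite ((hθ n i i).1 (by rw [h]; rfl)),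
      fun h => Equiv.ext fun i => (hθ n i i).2 fun a => conj_mem_of_normalizer (h i)⟩
  have k4 : ∀ σ ∈ M24, (∀ k, (σ • TE k) ∆ TE k ∈ code) → ∃ π ∈ ρ'.ker.map θ,
      ∀ i j, σ • OC i = OC j → π i = j := fun σ hσ h => by
    obtain ⟨c, hc, e⟩ := S.lift_UU hσ empty_mem_code h (by simp)
    exact ⟨_, ⟨⟨c, centralizer_le_normalizer _ hc⟩, (k1 _).2 hc, rfl⟩, fun i j f =>
      (hθ _ i j).2 fun a => conj_AA S.M _ _ e (mono_mul_eps hσ _ _ _ f)⟩
  obtain ⟨⟨σ, a1, a2, a3, a4⟩, τ, b1, b2, b3, b4⟩ := exists_swap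
  obtain ⟨σ', a5, a6⟩ := k4 σ a1 a2
  obtain ⟨τ', b5, b6⟩ := k4 τ b1 b2
  have k5 := perm3_top a5 b5 (a6 _ _ a3) (a6 _ _ a4) (b6 _ _ b3) (b6 _ _ b4)
  refine ⟨θ.prod ρ', fun y => ?_, fun n => ?_⟩
  · obtain ⟨c, hc, e1⟩ := k5.ge (mem_top y.1)
    obtain ⟨k, hk, e2⟩ := k2 y.2
    refine ⟨c * k, Prod.ext ?_ ?_⟩
    · change θ _ = _
      rw [map_mul, e1, (k3 k).2 hk, mul_one]
    · change ρ' _ = _
      rw [map_mul, e2, show ρ' c = 1 from hc, one_mul]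
  · rw [MonoidHom.prod_apply, Prod.mk_eq_one, k1, k3, mem_DD, and_comm]

theorem five_local : ∃ (E N : Subgroup G) (O : Subgroup N), IsElementaryAbelian 2 E ∧
    Nat.card E = 2 ^ 5 ∧ N = normalizer (E : Set G) ∧ O = pCore 2 N ∧ Nat.card O = 2 ^ 35 ∧
    (center O).map O.subtype = E.subgroupOf N ∧ ∃ _ : O.Normal,
      Nonempty (N ⧸ O ≃* Equiv.Perm (Fin 3) × Matrix.SpecialLinearGroup (Fin 5) (ZMod 2)) := by
  obtain ⟨Ψ, Ψ1, Ψ2⟩ := S.five_hom
  have DN : DD S.M ≤ normalizer (UU S.M : Set G) := inf_le_left.trans (centralizer_le_normalizer _)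
  have hc : Nat.card Ψ.ker = 2 ^ 35 := by
    rw [show Ψ.ker = (DD S.M).subgroupOf _ from Subgroup.ext Ψ2,
      Nat.card_congr (subgroupOfEquivOfLe DN).toEquiv, S.card_DD]
  have hU : ∀ a ∈ UU S.M, ∀ b ∈ UU S.M, a * b = b * a := fun _ ha _ hb =>
    S.comm_AA (hOC 0) (UU_le _ 0 ha) (UU_le _ 0 hb)
  refine ⟨UU S.M, _, Ψ.ker, ⟨.of_setLike_mul_comm hU,
    fun a ha => by rw [pow_two, S.sq_AA (hOC 0) (UU_le _ 0 ha)]⟩, S.card_UU, rfl,
    pCore_eq_ker Ψ1 (pCore_prod pCore_perm3 pCore_SL5) (IsPGroup.of_card hc), hc, ?_, inferInstance,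
    ⟨QuotientGroup.quotientKerEquivOfSurjective Ψ Ψ1⟩⟩
  ext x
  rw [mem_center_map_iff]
  constructor
  · rintro ⟨-, h⟩
    refine (mem_UU _).2 fun i t ht => ?_
    have h1 : t ∈ DD S.M := (mem_DD _).2 ⟨fun u hu => (UU_le _ i hu t ht).symm,
      fun j => Q_le_norm _ _ (TT_le _ _ ht)⟩
    exact congrArg Subtype.val (h ⟨t, DN h1⟩ ((Ψ2 _).2 h1))
  · intro h
    exact ⟨(Ψ2 x).2 ((mem_DD _).2 ⟨fun u hu => hU u hu x h, fun j => Q_le_norm _ _ (S.UU_le_Q h)⟩),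
      fun y hy => Subtype.ext (((Ψ2 y).1 hy).1 x h).symm⟩

end St

theorem eqns_Five : True := by
  have := @DD.eq_1.{0}
  trivial

end H7.ML
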